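import Mathlib
import Cfsg.Agent.Lib.Helper19.KAlt.Defs

/-!
# KALT (S0747), package [RESTR]: restriction of the stabiliser of `F` to `F`
-/

set_option autoImplicit false

namespace Cfsg.Agent.Lib.Helper76.KAlt

open Cfsg.Agent.Lib.Helper75.LW Cfsg.Agent.Lib.Helper19.KAlt

universe u

/-- the permutations of `F` induced by elements of `G` -/
def restrGroup {α : Type u} (G : Subgroup (Equiv.Perm α)) (F : Finset α) :
    Subgroup (Equiv.Perm ↥F) where
  carrier := {τ | ∃ g ∈ G, ∀ a : ↥F, g (a : α) = ((τ a : ↥F) : α)}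
  mul_mem' := by
    rintro τ₁ τ₂ ⟨g₁, hg₁, h₁⟩ ⟨g₂, hg₂, h₂⟩
    refine ⟨g₁ * g₂, G.mul_mem hg₁ hg₂, fun a => ?_⟩
    rw [Equiv.Perm.mul_apply, h₂ a, h₁ (τ₂ a)]
    rfl
  one_mem' := ⟨1, G.one_mem, fun _ => rfl⟩
  inv_mem' := by
    rintro τ ⟨g, hg, h⟩
    refine ⟨g⁻¹, G.inv_mem hg, fun a => ?_⟩
    rw [Equiv.Perm.inv_eq_iff_eq, h (τ⁻¹ a)]
    simp

theorem mem_restrGroup {α : Type u} {G : Subgroup (Equiv.Perm α)} {F : Finset α}
    {τ : Equiv.Perm ↥F} :
    τ ∈ restrGroup G F ↔ ∃ g ∈ G, ∀ a : ↥F, g (a : α) = ((τ a : ↥F) : α) := Iff.rfl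

/-- the obvious bijection between a finset of `↥F` and its image in `α` -/
noncomputable def mapEquiv {α : Type u} (F : Finset α) (Δ' : Finset ↥F) :
    ↥Δ' ≃ ↥(Δ'.map (Function.Embedding.subtype (fun a => a ∈ F))) :=
  Equiv.ofBijective
    (fun x => ⟨((x : ↥F) : α), Finset.mem_map_of_mem (Function.Embedding.subtype _) x.2⟩)
    (by
      constructor
      · intro x y h
        have h1 : ((x : ↥F) : α) = ((y : ↥F) : α) := by
          have := congrArg Subtype.val h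
          exact this
        exact Subtype.ext (Subtype.ext h1)
      · rintro ⟨a, ha⟩
        obtain ⟨b, hb, hba⟩ := Finset.mem_map.1 ha
        refine ⟨⟨b, hb⟩, ?_⟩
        apply Subtype.ext
        exact hba)

theorem mapEquiv_val {α : Type u} (F : Finset α) (Δ' : Finset ↥F) (x : ↥Δ') :
    ((mapEquiv F Δ' x : ↥(Δ'.map (Function.Embedding.subtype (fun a => a ∈ F)))) : α)
      = ((x : ↥F) : α) := rfl

/-- [RESTR] -/
theorem pkgRestr : Cfsg.Agent.Lib.Helper19.KAlt.PkgRestr.{u} := by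
  intro α _ _ G F k hT
  refine ⟨restrGroup G F, ?_, ?_⟩
  · intro x y
    obtain ⟨g, hgG, hgF, hg⟩ := hT (x.trans (Function.Embedding.subtype _))
      (y.trans (Function.Embedding.subtype _)) (fun i => (x i).2) (fun i => (y i).2)
    refine ⟨g.subtypePerm (fun a => hgF a), ⟨g, hgG, fun a => rfl⟩, fun i => ?_⟩
    apply Subtype.ext
    exact hg i
  · rintro ⟨Δ', hΔ', h⟩
    refine ⟨Δ'.map (Function.Embedding.subtype _), by rw [Finset.card_map]; exact hΔ', ?_⟩
    intro σ hσ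
    have hσ' : (mapEquiv F Δ').symm.permCongr σ ∈ alternatingGroup ↥Δ' := by
      rw [Equiv.Perm.mem_alternatingGroup] at hσ ⊢
      rw [Equiv.Perm.sign_permCongr]
      exact hσ
    obtain ⟨τ, ⟨g, hgG, hg⟩, hτ⟩ := h _ hσ'
    refine ⟨g, hgG, fun x => ?_⟩
    have h1 := hτ ((mapEquiv F Δ').symm x)
    have h2 : ((((mapEquiv F Δ').symm x : ↥Δ') : ↥F) : α) = (x : α) := by
      rw [← mapEquiv_val]
      simp
    rw [← h2, hg, h1, Equiv.permCongr_apply]
    simp only [Equiv.symm_symm, Equiv.apply_symm_apply]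
    rw [← mapEquiv_val]
    simp

end Cfsg.Agent.Lib.Helper76.KAlt
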