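import Mathlib
import Cfsg.Agent.Lib.Helper19.KAlt.Defs

/-!
# KALT (S0747), package [SLIDE]: one-step transitivity inside `F` gives `k`-transitivity on `F`
-/

set_option autoImplicit false

namespace Cfsg.Agent.Lib.Helper76.KAlt

open Cfsg.Agent.Lib.Helper75.LW Cfsg.Agent.Lib.Helper19.KAlt

universe u

theorem slide_aux {α : Type u} [Fintype α] [DecidableEq α] (G : Subgroup (Equiv.Perm α))
    (F : Finset α) (k : ℕ) (hF : k + 1 ≤ F.card) (hS : Step G F k)
    (x y : Fin k ↪ α) (hx : ∀ i, x i ∈ F) (hy : ∀ i, y i ∈ F) :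
    ∀ j : ℕ, j ≤ k →
      ∃ g ∈ G, (∀ a, g a ∈ F ↔ a ∈ F) ∧ ∀ i : Fin k, (i : ℕ) < j → g (x i) = y i := by
  intro j
  induction j with
  | zero =>
    intro _
    exact ⟨1, G.one_mem, fun a => Iff.rfl, fun i hi => absurd hi (Nat.not_lt_zero _)⟩
  | succ j ih =>
    intro hj
    obtain ⟨g1, hg1G, hg1F, hg1⟩ := ih (Nat.le_of_succ_le hj)
    have hjk : j < k := hj
    have huF : g1 (x ⟨j, hjk⟩) ∈ F := (hg1F _).2 (hx _)
    have hvF : y ⟨j, hjk⟩ ∈ F := hy _
    let B : Finset α :=
      (Finset.univ : Finset (Fin j)).image (fun i => y ⟨i.1, lt_trans i.2 hjk⟩)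
    have hBmem : ∀ a, a ∈ B ↔ ∃ i : Fin j, y ⟨i.1, lt_trans i.2 hjk⟩ = a := by
      intro a
      simp [B]
    have hBcard : B.card ≤ j := by
      calc B.card ≤ (Finset.univ : Finset (Fin j)).card := Finset.card_image_le
        _ = j := by simp
    have huB : g1 (x ⟨j, hjk⟩) ∉ B := by
      intro h
      obtain ⟨i, hi⟩ := (hBmem _).1 h
      have h1 : g1 (x ⟨i.1, lt_trans i.2 hjk⟩) = y ⟨i.1, lt_trans i.2 hjk⟩ := hg1 ⟨i.1, _⟩ i.2
      rw [← h1] at hi
      have h2 := x.injective (g1.injective hi)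
      have h3 : i.1 = j := by
        have := congrArg Fin.val h2
        simpa using this
      exact absurd i.2 (by omega)
    have hvB : y ⟨j, hjk⟩ ∉ B := by
      intro h
      obtain ⟨i, hi⟩ := (hBmem _).1 h
      have h2 := y.injective hi
      have h3 : i.1 = j := by
        have := congrArg Fin.val h2
        simpa using this
      exact absurd i.2 (by omega)
    have hBF : B ⊆ F := by
      intro a ha
      obtain ⟨i, hi⟩ := (hBmem _).1 ha
      rw [← hi]
      exact hy _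
    let T : Finset α := (F.erase (g1 (x ⟨j, hjk⟩))).erase (y ⟨j, hjk⟩)
    have hBT : B ⊆ T := by
      intro a ha
      have h1 : a ≠ g1 (x ⟨j, hjk⟩) := fun h => huB (h ▸ ha)
      have h2 : a ≠ y ⟨j, hjk⟩ := fun h => hvB (h ▸ ha)
      simp only [T, Finset.mem_erase]
      exact ⟨h2, h1, hBF ha⟩
    have hTcard : k - 1 ≤ T.card := by
      have h1 := Finset.pred_card_le_card_erase (s := F) (a := g1 (x ⟨j, hjk⟩))
      have h2 := Finset.pred_card_le_card_erase (s := F.erase (g1 (x ⟨j, hjk⟩)))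
        (a := y ⟨j, hjk⟩)
      simp only [T]
      omega
    obtain ⟨A, hBA, hAT, hAcard⟩ :=
      Finset.exists_subsuperset_card_eq hBT (by omega : B.card ≤ k - 1) hTcard
    have hAF : A ⊆ F := by
      intro a ha
      have := hAT ha
      simp only [T, Finset.mem_erase] at this
      exact this.2.2
    have huA : g1 (x ⟨j, hjk⟩) ∉ A := by
      intro h
      have := hAT h
      simp only [T, Finset.mem_erase] at this
      exact this.2.1 rfl
    have hvA : y ⟨j, hjk⟩ ∉ A := by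
      intro h
      have := hAT h
      simp only [T, Finset.mem_erase] at this
      exact this.1 rfl
    obtain ⟨g2, hg2G, hg2F, hg2A, hg2⟩ :=
      hS A hAF (by omega) _ _ huF hvF huA hvA
    refine ⟨g2 * g1, G.mul_mem hg2G hg1G, fun a => ?_, fun i hi => ?_⟩
    · rw [Equiv.Perm.mul_apply, hg2F, hg1F]
    · rw [Equiv.Perm.mul_apply]
      rcases Nat.lt_succ_iff_lt_or_eq.1 hi with h | h
      · rw [hg1 i h]
        apply hg2A
        apply hBA
        exact (hBmem _).2 ⟨⟨i.1, h⟩, rfl⟩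
      · have hi' : i = ⟨j, hjk⟩ := Fin.ext h
        rw [hi']
        exact hg2

/-- [SLIDE] -/
theorem pkgSlide : Cfsg.Agent.Lib.Helper19.KAlt.PkgSlide.{u} := by
  intro α _ _ G F k _ hF hS x y hx hy
  obtain ⟨g, hgG, hgF, hg⟩ := slide_aux G F k hF hS x y hx hy k le_rfl
  exact ⟨g, hgG, hgF, fun i => hg i i.2⟩

end Cfsg.Agent.Lib.Helper76.KAlt
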